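import Mathlib

/-!
# Sylow subgroups of alternating groups: abelian iff `n < p²`.
-/

set_option autoImplicit false

namespace Cfsg.Agent.Lib.AltSylow

open Equiv

/-- A `p`-group acting on fewer than `p²` points acts through an abelian group. -/
theorem smul_comm_of_card_lt {T X : Type*} [Group T] [Finite T] [Finite X] [MulAction T X] {p : ℕ}
    [hp : Fact p.Prime] (hT : IsPGroup p T) (hX : Nat.card X < p ^ 2) (a b : T) (x : X) :
    a • b • x = b • a • x := by
  classical
  have hO : Nat.card (MulAction.orbit T x) ∣ Nat.card T := by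
    rw [Nat.card_coe_set_eq, ← MulAction.index_stabilizer]
    exact Subgroup.index_dvd_card _
  obtain ⟨k, hk⟩ := IsPGroup.iff_card.mp hT
  rw [hk] at hO
  obtain ⟨j, hj, hj2⟩ := (Nat.dvd_prime_pow hp.out).mp hO
  have hOle : Nat.card (MulAction.orbit T x) ≤ Nat.card X := Finite.card_subtype_le _
  have hjlt : j < 2 := (Nat.pow_lt_pow_iff_right hp.out.one_lt).mp (by rw [← hj2]; omega)
  have hOp : Nat.card (MulAction.orbit T x) ≤ p := by
    rw [hj2]
    calc p ^ j ≤ p ^ 1 := Nat.pow_le_pow_right hp.out.pos (by omega)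
      _ = p := pow_one p
  let f : T →* Equiv.Perm (MulAction.orbit T x) := MulAction.toPermHom T _
  have hR : IsPGroup p f.range := IsPGroup.of_surjective hT f.rangeRestrict f.rangeRestrict_surjective
  obtain ⟨m, hm⟩ := IsPGroup.iff_card.mp hR
  have hRd : Nat.card f.range ∣ (Nat.card (MulAction.orbit T x)).factorial := by
    have := Subgroup.card_subgroup_dvd_card f.range
    rwa [Nat.card_perm] at this
  have hpnot : ¬ p ^ 2 ∣ p.factorial := by
    intro h
    rw [← Nat.mul_factorial_pred hp.out.pos.ne', pow_two] at h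
    have h1 := Nat.dvd_of_mul_dvd_mul_left hp.out.pos h
    have h2 := (hp.out.dvd_factorial).mp h1
    have h3 := hp.out.pos
    omega
  have hm1 : m ≤ 1 := by
    by_contra hcon
    push Not at hcon
    apply hpnot
    have h1 : p ^ 2 ∣ p ^ m := pow_dvd_pow p hcon
    rw [← hm] at h1
    exact h1.trans (hRd.trans (Nat.factorial_dvd_factorial hOp))
  have hRp : Nat.card f.range ∣ p := by
    rw [hm]
    exact (pow_dvd_pow p hm1).trans (by rw [pow_one])
  haveI : IsCyclic f.range := isCyclic_of_card_dvd_prime hRp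
  have hc : (⟨f a, a, rfl⟩ : f.range) * ⟨f b, b, rfl⟩ = ⟨f b, b, rfl⟩ * ⟨f a, a, rfl⟩ :=
    IsMulCommutative.is_comm.comm _ _
  have h3 : f a * f b = f b * f a := congrArg Subtype.val hc
  have h4 := congrArg (fun g : Equiv.Perm (MulAction.orbit T x) =>
    ((g ⟨x, MulAction.mem_orbit_self x⟩ : MulAction.orbit T x) : X)) h3
  exact h4

section Wreath

variable (p : ℕ) [hp : Fact p.Prime]

/-- The elements of the wreath product `C_p ≀ C_p`, acting on `C_p × C_p`. -/
def wr (c : ZMod p) (f : ZMod p → ZMod p) : Perm (ZMod p × ZMod p) where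
  toFun q := (q.1 + c, q.2 + f q.1)
  invFun q := (q.1 - c, q.2 - f (q.1 - c))
  left_inv q := by
    ext <;> simp
  right_inv q := by
    ext <;> simp

theorem wr_mul (c d : ZMod p) (f h : ZMod p → ZMod p) :
    wr p c f * wr p d h = wr p (c + d) (fun i => h i + f (i + d)) := by
  ext q <;> simp [wr, Equiv.Perm.mul_apply] <;> ring

theorem wr_zero : wr p 0 0 = 1 := by
  ext q <;> simp [wr]

theorem wr_inv (c : ZMod p) (f : ZMod p → ZMod p) :
    (wr p c f)⁻¹ = wr p (-c) (fun i => - f (i - c)) := by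
  apply inv_eq_of_mul_eq_one_right
  rw [wr_mul]
  have : (fun i => - f (i - c) + f (i + -c)) = (0 : ZMod p → ZMod p) := by
    funext i
    simp [sub_eq_add_neg]
  rw [this, add_neg_cancel, wr_zero]

/-- The wreath product as a permutation group. -/
def wrGroup : Subgroup (Perm (ZMod p × ZMod p)) where
  carrier := {g | ∃ c f, g = wr p c f}
  mul_mem' := by
    rintro _ _ ⟨c, f, rfl⟩ ⟨d, h, rfl⟩
    exact ⟨_, _, wr_mul p c d f h⟩
  one_mem' := ⟨0, 0, (wr_zero p).symm⟩
  inv_mem' := by
    rintro _ ⟨c, f, rfl⟩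
    exact ⟨_, _, wr_inv p c f⟩

theorem wr_pow_fst (c : ZMod p) (f : ZMod p → ZMod p) (m : ℕ) :
    ∃ s, (wr p c f) ^ m = wr p (m • c) s := by
  induction m with
  | zero => exact ⟨0, by simp [wr_zero]⟩
  | succ m ih =>
    obtain ⟨s, hs⟩ := ih
    exact ⟨fun i => f i + s (i + c), by rw [pow_succ, hs, wr_mul, add_smul, one_smul]⟩

theorem wr_zero_pow (s : ZMod p → ZMod p) (m : ℕ) : (wr p 0 s) ^ m = wr p 0 (m • s) := by
  induction m with
  | zero => simp [wr_zero]
  | succ m ih =>
    rw [pow_succ, ih, wr_mul, add_zero]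
    congr 1
    funext i
    simp [add_smul, add_comm]

theorem wr_isP : IsPGroup p (wrGroup p) := by
  rintro ⟨g, c, f, rfl⟩
  refine ⟨2, Subtype.ext ?_⟩
  simp only [SubmonoidClass.coe_pow, OneMemClass.coe_one]
  obtain ⟨s, hs⟩ := wr_pow_fst p c f p
  have h1 : (p • c : ZMod p) = 0 := by
    simp
  rw [pow_two, pow_mul, hs, h1, wr_zero_pow]
  have h2 : p • s = 0 := by
    funext i
    simp
  rw [h2, wr_zero]

theorem wr_not_comm :
    wr p 0 (fun i => if i = 0 then 1 else 0) * wr p 1 0 ≠
      wr p 1 0 * wr p 0 (fun i => if i = 0 then 1 else 0) := by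
  intro h
  have h1 := congrArg (fun g : Perm (ZMod p × ZMod p) => (g (0, 0)).2) h
  simp [wr, Equiv.Perm.mul_apply] at h1

end Wreath

section Embed

variable {n p : ℕ} [hp : Fact p.Prime]

/-- From a nonabelian `p`-group of even permutations of a subset to nonabelian Sylow subgroups. -/
theorem not_comm_of_subgroup {α : Type*} [Fintype α] [DecidableEq α] (e : α ↪ Fin n)
    (W : Subgroup (Perm α)) (hW : IsPGroup p W) (hsign : ∀ g ∈ W, Perm.sign g = 1)
    {a b : Perm α} (ha : a ∈ W) (hb : b ∈ W) (hab : a * b ≠ b * a)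
    (S : Sylow p (alternatingGroup (Fin n))) : ¬ IsMulCommutative S := by
  classical
  intro hS
  let ψ : Perm α →* Perm (Fin n) := Perm.extendDomainHom e.toEquivRange
  have hψ : Function.Injective ψ := Perm.extendDomainHom_injective _
  have hsψ : ∀ g ∈ W, ψ g ∈ alternatingGroup (Fin n) := by
    intro g hg
    rw [Equiv.Perm.mem_alternatingGroup]
    have h1 := Perm.viaFintypeEmbedding_sign g e
    rw [hsign g hg] at h1
    exact h1
  let W₂ : Subgroup (alternatingGroup (Fin n)) :=
    (W.map ψ).subgroupOf (alternatingGroup (Fin n))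
  have hW₂ : IsPGroup p W₂ := by
    rintro ⟨⟨g, hg⟩, hg2⟩
    obtain ⟨w, hw, rfl⟩ := Subgroup.mem_subgroupOf.mp hg2
    obtain ⟨k, hk⟩ := hW ⟨w, hw⟩
    refine ⟨k, Subtype.ext (Subtype.ext ?_)⟩
    have h1 : w ^ p ^ k = 1 := congrArg Subtype.val hk
    simp only [SubmonoidClass.coe_pow, OneMemClass.coe_one]
    rw [← map_pow, h1, map_one]
  obtain ⟨Q, hQ⟩ := hW₂.exists_le_sylow
  let a' : alternatingGroup (Fin n) := ⟨ψ a, hsψ a ha⟩
  let b' : alternatingGroup (Fin n) := ⟨ψ b, hsψ b hb⟩
  have ha' : a' ∈ Q := hQ (Subgroup.mem_subgroupOf.mpr ⟨a, ha, rfl⟩)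
  have hb' : b' ∈ Q := hQ (Subgroup.mem_subgroupOf.mpr ⟨b, hb, rfl⟩)
  let E : Q ≃* S := Sylow.equiv Q S
  have h1 : (⟨a', ha'⟩ : Q) * ⟨b', hb'⟩ = ⟨b', hb'⟩ * ⟨a', ha'⟩ := by
    apply E.injective
    rw [map_mul, map_mul]
    exact hS.is_comm.comm _ _
  have h2 : ψ a * ψ b = ψ b * ψ a := congrArg (fun x : Q => ((x : alternatingGroup (Fin n)) : Perm (Fin n))) h1
  apply hab
  apply hψ
  rw [map_mul, map_mul, h2]

end Embed

/-- The Klein-type 2-element on six points. -/
def a₆ : Perm (Fin 6) := swap 0 1 * swap 1 2 * swap 2 3 * swap 4 5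

/-- The involution on six points. -/
def b₆ : Perm (Fin 6) := swap 0 2 * swap 4 5

theorem isP_zpowers {G : Type*} [Group G] {p : ℕ} (y : G) (k : ℕ) (hy : y ^ p ^ k = 1) :
    IsPGroup p (Subgroup.zpowers y) := by
  rintro ⟨g, m, rfl⟩
  refine ⟨k, ?_⟩
  apply Subtype.ext
  simp only [SubmonoidClass.coe_pow, OneMemClass.coe_one]
  change (y ^ m) ^ p ^ k = 1
  rw [← zpow_natCast, ← zpow_mul, mul_comm, zpow_mul, zpow_natCast, hy, one_zpow]

/-- The main theorem. -/
theorem main (n p : ℕ) (hn : 6 ≤ n) [hp : Fact p.Prime] (S : Sylow p (alternatingGroup (Fin n))) :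
    IsMulCommutative S ↔ n < p ^ 2 := by
  classical
  constructor
  · intro hS
    by_contra hcon
    push Not at hcon
    by_cases hp2 : p = 2
    · subst hp2
      -- explicit dihedral group of order 8
      have hle : Fintype.card (Fin 6) ≤ Fintype.card (Fin n) := by simpa using hn
      obtain ⟨e⟩ := Function.Embedding.nonempty_of_card_le hle
      have ha4 : a₆ ^ 2 ^ 2 = 1 := by decide
      have hb2 : b₆ ^ 2 ^ 1 = 1 := by decide
      have hba : b₆ * a₆ * b₆⁻¹ = a₆⁻¹ := by decide
      have hb' : b₆⁻¹ = b₆ := by decide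
      have hnorm : Subgroup.zpowers b₆ ≤ Subgroup.normalizer (Subgroup.zpowers a₆ : Set (Perm (Fin 6))) := by
        rw [Subgroup.zpowers_le, Subgroup.mem_normalizer_iff]
        intro h
        constructor
        · rintro ⟨m, rfl⟩
          refine ⟨-m, ?_⟩
          simp only
          rw [← conj_zpow, hba, inv_zpow, zpow_neg]
        · rintro ⟨m, hm⟩
          refine ⟨-m, ?_⟩
          simp only at hm ⊢
          have h4 : b₆ * a₆ ^ m * b₆⁻¹ = a₆ ^ (-m) := by
            rw [← conj_zpow, hba, inv_zpow, zpow_neg]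
          have hbb : b₆ * b₆ = 1 := by decide
          rw [← h4, hm, hb']
          calc b₆ * (b₆ * h * b₆) * b₆ = (b₆ * b₆) * h * (b₆ * b₆) := by group
            _ = h := by rw [hbb]; simp
      have hW := IsPGroup.to_sup_of_normal_right' (isP_zpowers b₆ 1 hb2) (isP_zpowers a₆ 2 ha4) hnorm
      refine not_comm_of_subgroup e _ hW ?_ (a := a₆) (b := b₆)
        (Subgroup.mem_sup_right (Subgroup.mem_zpowers _))
        (Subgroup.mem_sup_left (Subgroup.mem_zpowers _)) (by decide) S hS
      intro g hg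
      have hle2 : Subgroup.zpowers b₆ ⊔ Subgroup.zpowers a₆ ≤ alternatingGroup (Fin 6) := by
        refine sup_le ?_ ?_
        · rw [Subgroup.zpowers_le, Equiv.Perm.mem_alternatingGroup]
          decide
        · rw [Subgroup.zpowers_le, Equiv.Perm.mem_alternatingGroup]
          decide
      exact Equiv.Perm.mem_alternatingGroup.mp (hle2 hg)
    · -- odd primes: the wreath product
      have hle : Fintype.card (ZMod p × ZMod p) ≤ Fintype.card (Fin n) := by
        rw [Fintype.card_prod, ZMod.card, Fintype.card_fin, ← pow_two]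
        exact hcon
      obtain ⟨e⟩ := Function.Embedding.nonempty_of_card_le hle
      refine not_comm_of_subgroup e (wrGroup p) (wr_isP p) ?_
        (a := wr p 0 (fun i => if i = 0 then 1 else 0)) (b := wr p 1 0) ⟨_, _, rfl⟩ ⟨_, _, rfl⟩
        (wr_not_comm p) S hS
      intro g hg
      obtain ⟨k, hk⟩ := wr_isP p ⟨g, hg⟩
      have h1 : g ^ p ^ k = 1 := congrArg Subtype.val hk
      have h2 : (Perm.sign g) ^ p ^ k = 1 := by
        rw [← map_pow, h1, map_one]
      rcases Int.units_eq_one_or (Perm.sign g) with h3 | h3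
      · exact h3
      · exfalso
        rw [h3] at h2
        have hodd : Odd (p ^ k) := (hp.out.odd_of_ne_two hp2).pow
        rw [hodd.neg_one_pow] at h2
        exact absurd h2 (by decide)
  · intro h
    refine ⟨⟨fun a b => ?_⟩⟩
    apply Subtype.ext
    apply Subtype.ext
    apply Equiv.ext
    intro x
    have hX : Nat.card (Fin n) < p ^ 2 := by simpa using h
    exact smul_comm_of_card_lt S.isPGroup' hX a b x

end Cfsg.Agent.Lib.AltSylow
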